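import Cfsg.Agent.PLocal.PStableSL2
import Cfsg.Agent.PLocal.AmbSyl
import Cfsg.Agent.Class.SL2Quat

/-!
`PSL₂(q)` (`q` odd) does not involve `SL₂(p)` (`p` odd); no quadratic action on irreducible modules.
-/

set_option autoImplicit false

namespace Cfsg.Agent.PLocal.NoQuad

open Subgroup Cfsg Cfsg.Agent.PLocal.Amb Cfsg.Agent.Class.Dickson
open scoped MatrixGroups commutatorElement

variable {G : Type*} [Group G]

theorem quaternion_comm {n : ℕ} {x y : QuaternionGroup n} (hx : x ^ 4 ≠ 1) (hy : y ^ 4 ≠ 1) : x * y = y * x := by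
  rcases x with i | i
  · rcases y with j | j
    · simp [add_comm]
    · exact absurd (QuaternionGroup.xa_pow_four j) hy
  · exact absurd (QuaternionGroup.xa_pow_four i) hx

/-- In every `2`-subgroup, elements of order greater than two commute. -/
def DihLike (G : Type*) [Group G] : Prop :=
  ∀ P : Subgroup G, IsPGroup 2 P → ∀ x ∈ P, ∀ y ∈ P, x ^ 2 ≠ 1 → y ^ 2 ≠ 1 → x * y = y * x

theorem DihLike.of_injective (h : DihLike G) {H : Type*} [Group H] (f : H →* G) (hf : Function.Injective f) :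
    DihLike H := fun P hP x hx y hy h1 h2 => hf (by
  rw [map_mul, map_mul]
  refine h (P.map f) (hP.map f) _ ⟨x, hx, rfl⟩ _ ⟨y, hy, rfl⟩ (fun e => h1 (hf ?_)) fun e => h2 (hf ?_) <;>
    rw [map_pow, e, map_one])

theorem DihLike.of_surjective [Finite G] (h : DihLike G) {H : Type*} [Group H] (f : G →* H)
    (hf : Function.Surjective f) : DihLike H := by
  intro P hP x hx y hy h1 h2
  have : Finite H := Finite.of_surjective f hf
  obtain ⟨T, hT⟩ := exists_isSyl 2 (⊤ : Subgroup G)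
  have h3 := hT.map f
  rw [map_top_of_surjective f hf] at h3
  obtain ⟨g, -, hg⟩ := h3.exists_le_cj hP le_top
  obtain ⟨g, rfl⟩ := hf g
  rw [← map_cj] at hg
  obtain ⟨x, hx', rfl⟩ := hg hx
  obtain ⟨y, hy', rfl⟩ := hg hy
  rw [← map_mul, ← map_mul, h _ (isPGroup_cj g hT.pgrp) x hx' y hy' (fun e => h1 (by rw [← map_pow, e, map_one]))
    fun e => h2 (by rw [← map_pow, e, map_one])]

theorem not_dihLike_sl2 {F : Type*} [Field F] [Finite F] (h2 : (2 : F) ≠ 0) : ¬ DihLike SL(2, F) := by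
  intro h
  obtain ⟨g, w, hq⟩ := exists_quatPair h2
  have hn := neg_one_ne_one_SL h2
  have h4 : ∀ x : SL(2, F), x * x = -1 → x ^ 2 ^ 2 = 1 := fun x hx => by
    rw [show 2 ^ 2 = 2 * 2 from rfl, pow_mul, sq x, hx, neg_one_sq]
  obtain ⟨P⟩ : Nonempty (Sylow 2 SL(2, F)) := inferInstance
  obtain ⟨c, h5, h6⟩ := exists_conj_pair_mem_sylow (h4 g hq.sq_left) (h4 w hq.sq_right)
    (hq.inverts ▸ inv_mem (mem_zpowers g)) P
  have h7 := hq.conj c
  have h8 := h P P.isPGroup' _ h5 _ h6 (by rw [sq, h7.sq_left]; exact hn) (by rw [sq, h7.sq_right]; exact hn)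
  rw [h7.anticomm, ← mul_neg_one, eq_comm, mul_eq_left] at h8
  exact hn h8

theorem dihLike_psl2 {F : Type*} [Field F] [Finite F] (h2 : (2 : F) ≠ 0) : DihLike PSL(2, F) := by
  intro P hP x hx y hy h1 h1'
  obtain ⟨g, w, hq⟩ := exists_quatPair h2
  have h3 : IsPGroup 2 (P.comap (pslMk F)) :=
    hP.comap_of_ker_isPGroup _ (IsPGroup.of_card (n := 1) (card_ker_pslMk h2))
  obtain ⟨T, hT⟩ := h3.exists_le_sylow
  obtain ⟨k, -, ⟨e⟩⟩ := sylow_two_quaternion (MonoidHom.id _) Function.injective_id hq T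
  obtain ⟨x, rfl⟩ := pslMk_surjective x
  obtain ⟨y, rfl⟩ := pslMk_surjective y
  have key : ∀ z : T, pslMk F z ^ 2 ≠ 1 → e z ^ 4 ≠ 1 := fun z hz h => hz (by
    rw [← map_pow, e.map_eq_one_iff] at h
    have h4 : ((z : SL(2, F)) ^ 2) * (z ^ 2) = 1 := by
      rw [← pow_add]
      exact congrArg Subtype.val h
    rw [← map_pow]
    by_contra h5
    have h6 := KSG.M2.SL_sq_eq_neg_one_iff.2 (trace_eq_zero_of_involution h2 h5 (by rw [← map_mul, h4, map_one]))
    exact neg_one_ne_one_SL h2 (h6.symm.trans h4))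
  have h5 := quaternion_comm (key ⟨x, hT hx⟩ h1) (key ⟨y, hT hy⟩ h1')
  rw [← map_mul, ← map_mul, e.apply_eq_iff_eq] at h5
  rw [← map_mul, ← map_mul]
  exact congrArg (pslMk F) (congrArg Subtype.val h5)

variable {p : ℕ} [hp : Fact p.Prime]

theorem DihLike.transvFree [Finite G] (hp2 : p ≠ 2) (h : DihLike G) : TransvFree p G := by
  by_contra h1
  obtain ⟨K, ψ, hψ⟩ := exists_surjective_sl2_of_not_transvFree hp2 h1
  refine not_dihLike_sl2 (F := ZMod p) ?_ ((h.of_injective K.subtype K.subtype_injective).of_surjective ψ hψ)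
  intro h2
  exact hp2 ((Nat.prime_dvd_prime_iff_eq hp.out Nat.prime_two).1 ((ZMod.natCast_eq_zero_iff 2 p).1 h2))

theorem le_centralizer_of_normal [Finite G] {V H : Subgroup G} (hV : IsPGroup p V) (hH : H ≤ 𝐍[V])
    (hirr : ∀ U : Subgroup G, U ≤ V → H ≤ 𝐍[U] → U = ⊥ ∨ U = V) [((𝐂[V]).subgroupOf H).Normal]
    (R : Subgroup (H ⧸ (𝐂[V]).subgroupOf H)) [R.Normal] (hR : IsPGroup p R) :
    (R.comap (QuotientGroup.mk' _)).map H.subtype ≤ 𝐂[V] := by
  set R' := (R.comap (QuotientGroup.mk' _)).map H.subtype with hR'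
  by_cases h0 : V = ⊥
  · subst h0
    exact fun x _ => mem_centralizer_iff.2 fun v hv => by rw [mem_bot.1 hv, one_mul, mul_one]
  obtain ⟨P, hP⟩ := exists_isSyl p R'
  have h1 : 𝐎[p, R'] ≤ 𝐂[V] := pRes_le_iff.2 (by
    rintro _ ⟨x, hx, rfl⟩ hc
    have h2 := eq_one_of_isPGroup_of_coprime hR hx
      (Nat.Coprime.coprime_dvd_left ((orderOf_map_dvd _ x).trans (by rw [← Subgroup.orderOf_coe]; rfl)) hc)
    exact (QuotientGroup.eq_one_iff x).1 h2)
  have h2 : V ⊓ 𝐂[R'] ≠ ⊥ := by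
    rw [← hP.pRes_sup, centralizer_sup, ← inf_assoc, inf_eq_left.2 (le_centralizer_iff.1 h1)]
    exact inf_centralizer_ne_bot hP.pgrp hV (hP.le.trans ((map_subtype_le _).trans hH)) h0
  have h3 := (hirr _ inf_le_left (le_normalizer_inf hH (le_normalizer_centralizer
    (le_normalizer_map_subtype _)))).resolve_left h2
  exact le_centralizer_iff.1 (h3 ▸ inf_le_right)

theorem mem_centralizer_of_quadratic [Finite G] {V H : Subgroup G} (hV : IsElementaryAbelian p V) (hH : H ≤ 𝐍[V])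
    (hirr : ∀ U : Subgroup G, U ≤ V → H ≤ 𝐍[U] → U = ⊥ ∨ U = V) [((𝐂[V]).subgroupOf H).Normal]
    (h : TransvFree p (H ⧸ (𝐂[V]).subgroupOf H)) {a : G} (ha : a ∈ H) (hq : ⁅⁅V, zpowers a⁆, zpowers a⁆ = ⊥) :
    a ∈ 𝐂[V] := by
  let ρ : (H ⧸ (𝐂[V]).subgroupOf H) →* Module.End (ZMod p) (EA hV) :=
    QuotientGroup.lift _ (EA.rep hV H hH) fun g hg => (EA.rep_eq_one_iff hH g).2 hg
  have h1 := h.mem_pCore ρ ⊥ (fun g hg => by
    obtain ⟨g, rfl⟩ := QuotientGroup.mk_surjective g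
    exact (QuotientGroup.eq_one_iff g).2 ((EA.rep_eq_one_iff hH g).1 hg)) (QuotientGroup.mk ⟨a, ha⟩)
    (EA.rep_sub_one_sq hH ⟨a, ha⟩ hq)
  refine le_centralizer_of_normal (elemAb_isPGroup hV) hH hirr ((pCore p _).comap (QuotientGroup.mk' ⊥))
    ((isPGroup_pCore' p _).comap_of_ker_isPGroup _ ?_) ⟨⟨a, ha⟩, h1, rfl⟩
  rw [QuotientGroup.ker_mk']
  exact IsPGroup.of_bot

end Cfsg.Agent.PLocal.NoQuad
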