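import Mathlib
import Cfsg.Agent.PLocal.SL2NatMore
import Cfsg.Agent.PLocal.SL2NatSyl
import Cfsg.Agent.PLocal.FStar
import Cfsg.Agent.PLocal.AmbSyl
import Cfsg.Agent.Grp.PFrattini
import Cfsg.Agent.Grp.Card

set_option autoImplicit false

/-! Timmesfeld's lemma on elementary abelian TI `2`-subgroups that are not weakly closed in `O₂` of their
normalizer. -/

namespace Cfsg.Agent.PLocal.TimmTI

open Subgroup Cfsg Cfsg.Agent.PLocal.Amb Cfsg.Agent.PLocal.SL2Nat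
open scoped commutatorElement MatrixGroups

variable {G : Type*} [Group G]

theorem comm_mem_left {x y : G} {A : Subgroup G} (hx : x ∈ A) (hy : y ∈ 𝐍[A]) : ⁅x, y⁆ ∈ A := by
  rw [commutatorElement_def, mul_assoc, mul_assoc, ← mul_assoc y]
  exact A.mul_mem hx (conj_mem_of_mem_normalizer hy (A.inv_mem hx))

theorem comm_mem_right {x y : G} {A : Subgroup G} (hx : x ∈ 𝐍[A]) (hy : y ∈ A) : ⁅x, y⁆ ∈ A :=
  A.mul_mem (conj_mem_of_mem_normalizer hx hy) (A.inv_mem hy)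

theorem mem_normalizer_of_comm {A : Subgroup G} [Finite G] {x : G} (h : ∀ a ∈ A, ⁅x, a⁆ ∈ A) : x ∈ 𝐍[A] :=
  mem_normalizer_of_cj_le (cj_le_iff_forall.mpr fun a ha => by
    simpa [commutatorElement_def] using A.mul_mem (h a ha) ha)

theorem exists_comm_mem [Finite G] {P X Y Q : Subgroup G} (hP : IsPGroup 2 P) (hX : X ≤ P) (hQ : Q ≤ P)
    (hn : Q ≤ 𝐍[X]) (h : ¬ X ≤ Y) : ∃ c ∈ X, c ∉ Y ∧ ∀ q ∈ Q, ⁅c, q⁆ ∈ Y := by
  haveI := hP.isNilpotent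
  obtain ⟨n, e⟩ := CommMod.exists_iter_eq_bot hX hQ
  obtain ⟨c, h1, h2, h3⟩ := CommMod.exists_not_mem_commutator_mem hn ⟨n, e ▸ bot_le⟩ h
  exact ⟨c, h1, h2, fun q hq => (h3 q hq).2⟩

/-- The basic configuration. -/
structure Base (V P : Subgroup G) : Prop where
  sq_V : ∀ v ∈ V, v * v = 1
  ti : ∀ x : G, cj(x, V) = V ∨ cj(x, V) ⊓ V = ⊥
  two : IsPGroup 2 P
  le : V ≤ P
  cent : P ≤ 𝐂[V]
  norm : 𝐍[V] ≤ 𝐍[P]
  max : ∀ A : Subgroup G, V ≤ A → A ≤ P → A ≤ 𝐂[A] → 𝐍[V] ≤ 𝐍[A] → A ≤ V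
  core : ∀ K : Subgroup G, IsPGroup 2 K → K ≤ 𝐂[V] → 𝐍[V] ≤ 𝐍[K] → K ≤ P
  cp : 𝐂[P] ≤ V

namespace Base

variable [Finite G] {V P : Subgroup G} (h : Base V P)
include h

omit [Finite G] in
theorem comm {v y : G} (hv : v ∈ V) (hy : y ∈ P) : v * y = y * v := h.cent hy v hv

omit [Finite G] in
theorem P_le : P ≤ 𝐍[V] := h.cent.trans (centralizer_le_normalizer' V)

omit [Finite G] in
theorem sq_comm {k y : G} (hk : k ∈ 𝐂[V]) (hc : ⁅k, y⁆ ∈ V) : y * (k * k) = k * k * y := by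
  have e : k * y = ⁅k, y⁆ * y * k := by simp [commutatorElement_def]
  have e1 := hk _ hc
  calc y * (k * k) = ⁅k, y⁆ * ⁅k, y⁆ * y * k * k := by rw [h.sq_V _ hc]; group
    _ = ⁅k, y⁆ * (k * y) * k := by rw [e]; group
    _ = k * (⁅k, y⁆ * y * k) := by rw [← mul_assoc, ← mul_assoc, ← mul_assoc, e1]
    _ = k * k * y := by rw [← e, mul_assoc]

/-- elements of `C(V)` centralizing `P / V` -/
def Kc (_ : Base V P) : Subgroup G where
  carrier := {k | k ∈ 𝐂[V] ∧ ∀ y ∈ P, ⁅k, y⁆ ∈ V}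
  one_mem' := ⟨one_mem _, fun y _ => by simp⟩
  mul_mem' {a b} ha hb := ⟨mul_mem ha.1 hb.1, fun y hy => by
    have : ⁅a * b, y⁆ = a * ⁅b, y⁆ * a⁻¹ * ⁅a, y⁆ := by simp only [commutatorElement_def]; group
    rw [this]
    exact V.mul_mem (conj_mem_of_mem_normalizer (centralizer_le_normalizer' V ha.1) (hb.2 y hy)) (ha.2 y hy)⟩
  inv_mem' {a} ha := ⟨inv_mem ha.1, fun y hy => by
    have : ⁅a⁻¹, y⁆ = a⁻¹ * ⁅a, y⁆⁻¹ * a := by simp only [commutatorElement_def]; group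
    rw [this]
    exact inv_conj_mem_of_mem_normalizer (centralizer_le_normalizer' V ha.1) (V.inv_mem (ha.2 y hy))⟩

omit [Finite G] in
theorem norm_Kc : 𝐍[V] ≤ 𝐍[h.Kc] := le_normalizer_iff_cj.mpr fun m hm => cj_le_iff_forall.mpr fun k hk =>
  ⟨conj_mem_of_mem_normalizer (normalizer_le_normalizer_centralizer V hm) hk.1, fun y hy => by
    have : ⁅m * k * m⁻¹, y⁆ = m * ⁅k, m⁻¹ * y * m⁆ * m⁻¹ := by simp only [commutatorElement_def]; group
    rw [this]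
    exact conj_mem_of_mem_normalizer hm (hk.2 _ (inv_conj_mem_of_mem_normalizer (h.norm hm) hy))⟩

omit [Finite G] in
theorem Kc_le : h.Kc ≤ P := by
  refine h.core _ (isPGroup_iff.mpr fun k hk => ⟨2, ?_⟩) (fun k hk => hk.1) h.norm_Kc
  have := h.sq_V _ (h.cp (show k * k ∈ 𝐂[P] from fun y hy => h.sq_comm hk.1 (hk.2 y hy)))
  rw [← this, show 2 ^ 2 = 2 + 2 by rfl, pow_add, pow_two]

theorem sq_mem {x : G} (hx : x ∈ P) : x * x ∈ V := by
  have h1 : P ⊓ 𝐂[h.Kc] ≤ V := by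
    by_contra hc
    obtain ⟨c, c1, c2, c3⟩ := exists_comm_mem h.two inf_le_left le_rfl
      (le_normalizer_inf le_normalizer (le_normalizer_centralizer (h.P_le.trans h.norm_Kc))) hc
    refine c2 (h.max (h.Kc ⊓ 𝐂[h.Kc]) (fun v hv => ⟨⟨h.cent (h.le hv), fun y hy => ?_⟩, fun k hk => ?_⟩)
      (inf_le_left.trans h.Kc_le) (inf_le_right.trans (centralizer_anti inf_le_left))
      (le_normalizer_inf h.norm_Kc (le_normalizer_centralizer h.norm_Kc)) ⟨⟨h.cent c1.1, c3⟩, c1.2⟩)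
    · exact comm_mem_left hv (h.P_le hy)
    · exact (hk.1 v hv).symm
  refine h1 ⟨P.mul_mem hx hx, fun k hk => h.sq_comm (h.cent hx) ?_⟩
  rw [← commutatorElement_inv]
  exact V.inv_mem (hk.2 x hx)

theorem comm_mem {x y : G} (hx : x ∈ P) (hy : y ∈ P) : ⁅x, y⁆ ∈ V := by
  have : ⁅x, y⁆ = x * y * (x * y) * (y⁻¹ * (x⁻¹ * x⁻¹) * y) * (y⁻¹ * y⁻¹) := by
    simp only [commutatorElement_def]; group
  rw [this]
  exact V.mul_mem (V.mul_mem (h.sq_mem (P.mul_mem hx hy)) (inv_conj_mem_of_mem_normalizer (h.P_le hy)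
    (h.sq_mem (P.inv_mem hx)))) (h.sq_mem (P.inv_mem hy))

theorem norm_of_le {A : Subgroup G} (h1 : V ≤ A) (h2 : A ≤ P) : P ≤ 𝐍[A] := fun _ hx =>
  mem_normalizer_of_comm fun _ ha => h1 (h.comm_mem hx (h2 ha))

omit [Finite G] in
theorem ti' {a b u : G} (ha : u ∈ cj(a, V)) (hb : u ∈ cj(b, V)) (hu : u ≠ 1) : cj(a, V) = cj(b, V) := by
  rcases h.ti (b⁻¹ * a) with e | e
  · rw [← cj_cj_inv b cj(a, V), ← cj_mul b⁻¹, e]
  · have : b⁻¹ * u * b ∈ cj(b⁻¹ * a, V) ⊓ V := ⟨by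
      rw [cj_mul]; simpa using conj_mem_cj b⁻¹ ha, mem_cj.mp hb⟩
    rw [e, mem_bot] at this
    exact absurd (by rw [← mul_inv_cancel_left b u, ← mul_inv_cancel_right (b⁻¹ * u) b, this]; group) hu

omit [Finite G] in
theorem eq_one {a b u : G} (hne : cj(a, V) ≠ cj(b, V)) (ha : u ∈ cj(a, V)) (hb : u ∈ cj(b, V)) : u = 1 := by
  by_contra hu
  exact hne (h.ti' ha hb hu)

omit [Finite G] in
theorem eq_one' {a u : G} (hne : cj(a, V) ≠ V) (ha : u ∈ cj(a, V)) (hb : u ∈ V) : u = 1 :=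
  h.eq_one (b := 1) (by rwa [cj_one]) ha (by rwa [cj_one])

omit [Finite G] in
theorem mem_norm {a u x : G} (ha : u ∈ cj(a, V)) (hu : u ≠ 1) (hx : x * u * x⁻¹ ∈ cj(a, V)) :
    x ∈ 𝐍[cj(a, V)] := by
  rw [← cj_eq_iff, ← cj_mul]
  refine h.ti' (by rw [cj_mul]; exact conj_mem_cj x ha) hx fun e => hu ?_
  rw [← mul_inv_cancel_right u x⁻¹, ← inv_mul_cancel_left x u, mul_assoc x⁻¹, e]; group

theorem cj (g : G) : Base cj(g, V) cj(g, P) where
  sq_V v hv := by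
    obtain ⟨w, hw, rfl⟩ := mem_cj_iff_exists.mp hv
    rw [conj_mul, h.sq_V w hw]; group
  ti x := by
    rw [← cj_mul]
    by_cases e : cj(x * g, V) = cj(g, V)
    · exact Or.inl e
    · exact Or.inr (eq_bot_iff.mpr fun u hu => h.eq_one e hu.1 hu.2)
  two := isPGroup_cj g h.two
  le := cj_mono g h.le
  cent := by rw [centralizer_cj]; exact cj_mono g h.cent
  norm := by rw [normalizer_cj, normalizer_cj]; exact cj_mono g h.norm
  max A h1 h2 h3 h4 := le_cj_iff.mpr (h.max _ (cj_le_iff.mp h1) (le_cj_iff.mp h2)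
    (by rw [centralizer_cj]; exact cj_mono _ h3)
    (by rw [normalizer_cj, ← cj_le_iff, ← normalizer_cj]; exact h4))
  core K h1 h2 h3 := le_cj_iff.mpr (h.core _ (isPGroup_cj _ h1)
    (by rw [← le_cj_iff, ← centralizer_cj]; exact h2)
    (by rw [normalizer_cj, ← cj_le_iff, ← normalizer_cj]; exact h3))
  cp := by rw [centralizer_cj]; exact cj_mono g h.cp

section Conj

variable {g : G} (hne : cj(g, V) ≠ V) (hP : cj(g, V) ≤ P)
include hne hP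

theorem cent_of_norm {y : G} (hy : y ∈ P) (hn : y ∈ 𝐍[cj(g, V)]) : y ∈ 𝐂[cj(g, V)] := fun _ hu =>
  commutatorElement_eq_one_iff_mul_comm.mp (h.eq_one' hne (comm_mem_left hu hn) (h.comm_mem (hP hu) hy))

theorem cent_of_comm {u y : G} (hu : u ∈ cj(g, V)) (h1 : u ≠ 1) (hy : y ∈ P) (e : u * y = y * u) :
    y ∈ 𝐂[cj(g, V)] :=
  h.cent_of_norm hne hP hy (h.mem_norm hu h1 (by rwa [← e, mul_inv_cancel_right]))

omit [Finite G] in
theorem exists_partner : ∃ g', cj(g', V) ≠ V ∧ cj(g', V) ≤ P ∧ ¬ cj(g', V) ≤ 𝐂[cj(g, V)] := by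
  by_contra hc
  push Not at hc
  let T : Subgroup G := P ⊓ ⨅ m ∈ 𝐍[V], 𝐂[cj(m * g, V)]
  have hT : ∀ x, x ∈ T ↔ x ∈ P ∧ ∀ m ∈ 𝐍[V], x ∈ 𝐂[cj(m * g, V)] := fun x => by
    simp only [T, mem_inf, mem_iInf]
  have hP' : ∀ m ∈ 𝐍[V], cj(m * g, V) ≤ P := fun m hm => by
    rw [cj_mul]; exact cj_le_of_mem_normalizer hP (h.norm hm)
  have hn : 𝐍[V] ≤ 𝐍[T] := le_normalizer_iff_cj.mpr fun m hm => cj_le_iff_forall.mpr fun x hx => by
    rw [hT] at hx ⊢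
    refine ⟨conj_mem_of_mem_normalizer (h.norm hm) hx.1, fun m' hm' => ?_⟩
    have := conj_mem_cj m (hx.2 (m⁻¹ * m') (mul_mem (inv_mem hm) hm'))
    rwa [← centralizer_cj, ← cj_mul, ← mul_assoc, mul_inv_cancel_left] at this
  have h1 := h.max (T ⊓ 𝐂[T]) (fun v hv => ⟨(hT v).mpr ⟨h.le hv, fun m hm u hu => (h.comm hv (hP' m hm hu)).symm⟩,
      fun x hx => (h.comm hv hx.1).symm⟩) (inf_le_left.trans inf_le_left)
    (inf_le_right.trans (centralizer_anti inf_le_left)) (le_normalizer_inf hn (le_normalizer_centralizer hn))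
  have h2 : cj(g, V) ≤ V := fun u hu => h1 ⟨(hT u).mpr ⟨hP hu, fun m hm => le_centralizer_iff.mp
    (hc (m * g) (fun e => hne (by
      rw [cj_mul] at e
      rw [← cj_inv_cj m cj(g, V), e, cj_of_mem_normalizer (inv_mem hm)])) (hP' m hm)) hu⟩, fun x hx => by
      have := ((hT x).mp hx).2 1 (one_mem _)
      rw [one_mul] at this
      exact (this u hu).symm⟩
  have h3 : cj(g, V) = ⊥ := eq_bot_iff.mpr fun u hu => h.eq_one' hne hu (h2 hu)
  exact hne (by rw [h3, cj_eq_bot.mp h3])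

variable {g' : G} (hne' : cj(g', V) ≠ V) (hP' : cj(g', V) ≤ P) (hnc : ¬ cj(g', V) ≤ 𝐂[cj(g, V)])
include hne' hP' hnc

theorem eq_one_of_cent {y : G} (hy : y ∈ cj(g', V)) (hc : y ∈ 𝐂[cj(g, V)]) : y = 1 := by
  by_contra h1
  exact hnc (le_centralizer_iff.mp fun u hu => h.cent_of_comm hne' hP' hy h1 (hP hu) (hc u hu).symm)

theorem exists_comm_eq {u v : G} (hu : u ∈ cj(g, V)) (h1 : u ≠ 1) (hv : v ∈ V) :
    ∃ y ∈ cj(g', V), ⁅y, u⁆ = v := by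
  let f : cj(g', V) → V := fun y => ⟨⁅(y : G), u⁆, h.comm_mem (hP' y.2) (hP hu)⟩
  have hf : Function.Injective f := fun y z e => by
    have e' : ⁅(y : G), u⁆ = ⁅(z : G), u⁆ := congrArg Subtype.val e
    have hm := mul_mem (inv_mem z.2) y.2
    have := h.eq_one_of_cent hne hP hne' hP' hnc hm (h.cent_of_comm hne hP hu h1 (hP' hm) (by
      simp only [commutatorElement_def, mul_left_inj] at e'
      calc u * ((z : G)⁻¹ * y) = (z : G)⁻¹ * (z * u * (z : G)⁻¹) * y := by group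
        _ = (z : G)⁻¹ * y * u := by rw [← e']; group))
    exact Subtype.ext (inv_mul_eq_one.mp this).symm
  obtain ⟨y, hy⟩ := (hf.bijective_of_nat_card_le (card_cj g' V).ge).2 ⟨v, hv⟩
  exact ⟨y, y.2, congrArg Subtype.val hy⟩

theorem exists_decomp {x : G} (hx : x ∈ P) : ∃ y ∈ cj(g', V), y⁻¹ * x ∈ 𝐂[cj(g, V)] := by
  by_cases h0 : cj(g, V) = ⊥
  · exact ⟨1, one_mem _, by rw [h0]; intro u hu; rw [mem_bot.mp hu]; simp⟩
  obtain ⟨⟨u, hu⟩, h1⟩ := ne_bot_iff_exists_ne_one.mp h0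
  have h1' : u ≠ 1 := fun e => h1 (Subtype.ext e)
  obtain ⟨y, hy, e⟩ := h.exists_comm_eq hne hP hne' hP' hnc hu h1' (h.comm_mem hx (hP hu))
  refine ⟨y, hy, h.cent_of_comm hne hP hu h1' (P.mul_mem (P.inv_mem (hP' hy)) hx) ?_⟩
  simp only [commutatorElement_def, mul_left_inj] at e
  calc u * (y⁻¹ * x) = y⁻¹ * (y * u * y⁻¹) * x := by group
    _ = y⁻¹ * x * u := by rw [e]; group

theorem mem_of_cent {b : G} (hb : b ∈ P) (hc : b ∈ 𝐂[P ⊓ 𝐂[cj(g, V)]]) : b ∈ V ⊔ cj(g, V) := by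
  have hnc' : ¬ cj(g, V) ≤ 𝐂[cj(g', V)] := fun e => hnc (le_centralizer_iff.mp e)
  obtain ⟨u, hu, e⟩ := h.exists_decomp hne' hP' hne hP hnc' hb
  have h1 : u⁻¹ * b ∈ V := h.cp fun x hx => by
    obtain ⟨y, hy, e'⟩ := h.exists_decomp hne hP hne' hP' hnc hx
    have e1 := e y hy
    have e2 := hc _ ⟨P.mul_mem (P.inv_mem (hP' hy)) hx, e'⟩
    have e3 := e' _ (inv_mem hu)
    calc x * (u⁻¹ * b) = y * (y⁻¹ * x * u⁻¹) * b := by group
      _ = y * u⁻¹ * (y⁻¹ * x * b) := by rw [← e3]; group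
      _ = y * (u⁻¹ * b) * (y⁻¹ * x) := by rw [e2]; group
      _ = u⁻¹ * b * x := by rw [e1]; group
  rw [← mul_inv_cancel_left u b]
  exact mul_mem (mem_sup_right hu) (mem_sup_left h1)

theorem card_le : Nat.card ↥(V ⊔ cj(g, V)) * Nat.card ↥(P ⊓ 𝐂[V ⊔ cj(g, V)]) ≤ Nat.card P * Nat.card V := by
  have hV : V ≤ 𝐍[cj(g, V)] := (le_centralizer_iff.mp (hP.trans h.cent)).trans (centralizer_le_normalizer' _)
  have h1 := Nat.le_of_dvd (Nat.mul_pos Nat.card_pos Nat.card_pos) (Grp.card_sup_dvd_of_le_normalizer hV)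
  have h2 := Grp.card_sup_mul_card_inf_of_le_normalizer (H := cj(g', V)) (N := P ⊓ 𝐂[V ⊔ cj(g, V)])
    (hP'.trans (h.norm_of_le (le_inf h.le (by
      rw [centralizer_sup]; exact le_inf (h.le.trans h.cent) (le_centralizer_iff.mp (hP.trans h.cent))))
      inf_le_left))
  rw [show cj(g', V) ⊓ (P ⊓ 𝐂[V ⊔ cj(g, V)]) = ⊥ from eq_bot_iff.mpr fun y hy =>
    h.eq_one_of_cent hne hP hne' hP' hnc hy.1 (centralizer_anti le_sup_right hy.2.2), card_bot, mul_one,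
    card_cj] at h2
  have h3 := card_le_of_le (sup_le hP' (inf_le_left : P ⊓ 𝐂[V ⊔ cj(g, V)] ≤ P))
  rw [card_cj] at h1
  calc _ ≤ Nat.card V * Nat.card V * Nat.card ↥(P ⊓ 𝐂[V ⊔ cj(g, V)]) := Nat.mul_le_mul_right _ h1
    _ = Nat.card V * Nat.card ↥(P ⊓ 𝐂[V ⊔ cj(g, V)]) * Nat.card V := by ring
    _ ≤ _ := Nat.mul_le_mul_right _ (h2 ▸ h3)

end Conj

section Line

variable {g : G} (hne : cj(g, V) ≠ V) (hP : cj(g, V) ≤ P)
include hne hP

omit [Finite G] hP in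
theorem ne_bot : V ≠ ⊥ := fun e => hne (by rw [e, cj_bot])

theorem exists_cj {w : G} (hw : w ∈ V ⊔ cj(g, V)) (hV : w ∉ V) : ∃ y ∈ P, w ∈ cj(y * g, V) := by
  obtain ⟨g', h1, h2, h3⟩ := h.exists_partner hne hP
  obtain ⟨v, hv, u, hu, rfl⟩ := (mem_sup_of_le_normalizer_left (hP.trans h.P_le)).mp hw
  obtain ⟨y, hy, e⟩ := h.exists_comm_eq hne hP h1 h2 h3 hu (fun e => hV (by rw [e, mul_one]; exact hv)) hv
  refine ⟨y, h2 hy, ?_⟩
  rw [cj_mul, ← e, commutatorElement_def, inv_mul_cancel_right]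
  exact conj_mem_cj y hu

theorem cj_eq {x : G} (hx : cj(x, V) ≤ V ⊔ cj(g, V)) (hM : x ∉ 𝐍[V]) : ∃ y ∈ P, cj(x, V) = cj(y * g, V) := by
  obtain ⟨⟨v, hv⟩, h1⟩ := ne_bot_iff_exists_ne_one.mp (cj_eq_bot.not.mpr (h.ne_bot hne) : cj(x, V) ≠ ⊥)
  have h1' : v ≠ 1 := fun e => h1 (Subtype.ext e)
  obtain ⟨y, hy, e⟩ := h.exists_cj hne hP (hx hv) fun e => h1' (h.eq_one' (cj_eq_iff.not.mpr hM) hv e)
  exact ⟨y, hy, h.ti' hv e h1'⟩

theorem move {x : G} (hx : x ∈ 𝐍[V ⊔ cj(g, V)]) (hM : x ∉ 𝐍[V]) :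
    ∃ y ∈ P, cj(y⁻¹ * x, V) = cj(g, V) ∧ cj(y⁻¹ * x, P) = cj(g, P) := by
  obtain ⟨y, hy, e⟩ := h.cj_eq hne hP (cj_le_of_mem_normalizer le_sup_left hx) hM
  have e1 : cj(y⁻¹ * x, V) = cj(g, V) := by rw [cj_mul, e, cj_mul, cj_inv_cj]
  refine ⟨y, hy, e1, ?_⟩
  have : g⁻¹ * (y⁻¹ * x) ∈ 𝐍[V] := by rw [← cj_eq_iff, cj_mul, e1, cj_inv_cj]
  rw [← mul_inv_cancel_left g (y⁻¹ * x), cj_mul, cj_of_mem_normalizer (h.norm this)]

theorem not_le_norm : ¬ 𝐍[V ⊔ cj(g, V)] ≤ 𝐍[V] := by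
  intro hN
  have h' := h.cj g
  obtain ⟨g', h1, h2, h3⟩ := h.exists_partner hne hP
  have hVU : V ≤ 𝐂[cj(g, V)] := le_centralizer_iff.mp (hP.trans h.cent)
  -- an element of `N(U)` moving `V` to a conjugate meeting `A` normalizes `V`
  have key : ∀ x ∈ cj(g, P), ∀ v ∈ cj(x, V), v ≠ 1 → v ∈ V ⊔ cj(g, V) → x ∈ 𝐍[V] := by
    intro x hx v hv hv1 hA
    by_cases hvV : v ∈ V
    · exact cj_eq_iff.mp ((h.ti' (b := 1) hv (by rwa [cj_one]) hv1).trans (cj_one V))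
    obtain ⟨y, hy, e⟩ := h.exists_cj hne hP hA hvV
    refine hN (mem_normalizer_of_cj_le ?_)
    rw [cj_sup, h.ti' hv e hv1, cj_of_mem_normalizer (h'.P_le hx), cj_mul]
    exact sup_le (cj_le_of_mem_normalizer le_sup_right (h.norm_of_le le_sup_left (sup_le h.le hP) hy))
      le_sup_right
  have d1 : ∀ v ∈ V, v ∈ cj(g, P) → v = 1 := by
    intro v hv hv'
    by_contra hv1
    refine hv1 (h.eq_one' hne (h'.cp fun x hx => commutatorElement_eq_one_iff_mul_comm.mp ?_) hv)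
    have hc := h'.comm_mem hx hv'
    refine h.eq_one' hne hc (comm_mem_right (key x hx _ (conj_mem_cj x hv) (fun e => hv1 ?_) ?_) hv)
    · rw [← mul_inv_cancel_right v x⁻¹, ← inv_mul_cancel_left x v, mul_assoc x⁻¹, e]; group
    · rw [← inv_mul_cancel_right (x * v * x⁻¹) v]
      exact mul_mem (mem_sup_right hc) (mem_sup_left hv)
  have hC : P ⊓ 𝐂[cj(g, V)] ≤ 𝐍[cj(g, P)] :=
    inf_le_right.trans ((centralizer_le_normalizer' _).trans h'.norm)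
  obtain ⟨x, x1, x2, x3⟩ := exists_comm_mem (Y := 𝐂[V]) (isPGroup_sup (h.two.to_le inf_le_left) h'.two hC)
    le_sup_right le_sup_left hC fun e => h.ne_bot hne (eq_bot_iff.mpr fun v hv =>
      h.eq_one' hne (h'.cp (le_centralizer_iff.mp e hv)) hv)
  have hxM : x ∉ 𝐍[V] := fun hx => x2 fun v hv => (commutatorElement_eq_one_iff_mul_comm.mp
    (d1 _ (comm_mem_right hx hv) (comm_mem_left x1 (hC ⟨h.le hv, hVU hv⟩)))).symm
  have hVC : V ≤ P ⊓ 𝐂[cj(g, V)] := le_inf h.le hVU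
  have n1 : cj(x⁻¹, V) ≤ 𝐂[P ⊓ 𝐂[cj(g, V)]] := le_centralizer_iff.mp fun c hc => by
    rw [centralizer_cj, mem_cj, inv_inv, ← inv_mul_cancel_right (x * c * x⁻¹) c]
    exact mul_mem (x3 c hc) (h.cent hc.1)
  obtain ⟨⟨v, hv⟩, v1⟩ := ne_bot_iff_exists_ne_one.mp (cj_eq_bot.not.mpr (h.ne_bot hne) : cj(x⁻¹, V) ≠ ⊥)
  have hvV : v ∈ 𝐂[V] := centralizer_anti hVC (n1 hv)
  have hvP : v ∈ P := h.Kc_le ⟨hvV, fun y hy => by
    obtain ⟨z, hz, e⟩ := h.exists_decomp hne hP h1 h2 h3 hy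
    have e1 : ⁅v, y⁆ = ⁅v, z⁆ := by
      have := n1 hv _ ⟨P.mul_mem (P.inv_mem (h2 hz)) hy, e⟩
      calc ⁅v, y⁆ = v * z * v⁻¹ * (v * (z⁻¹ * y)) * v⁻¹ * y⁻¹ := by rw [commutatorElement_def]; group
        _ = ⁅v, z⁆ := by rw [← this, commutatorElement_def]; group
    have a1 : ⁅v, z⁆ ∈ V ⊔ cj(g, V) := by
      refine h.mem_of_cent hne hP h1 h2 h3
        (comm_mem_right (h.norm (centralizer_le_normalizer' V hvV)) (h2 hz)) fun c hc => ?_
      have c1 := n1 hv c hc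
      have c2 := n1 (inv_mem hv) _ (inv_conj_mem_of_mem_normalizer (h.norm_of_le hVC inf_le_left (h2 hz)) hc)
      calc c * ⁅v, z⁆ = c * v * z * v⁻¹ * z⁻¹ := by rw [commutatorElement_def]; group
        _ = v * z * (z⁻¹ * c * z * v⁻¹) * z⁻¹ := by rw [c1]; group
        _ = ⁅v, z⁆ * c := by rw [c2, commutatorElement_def]; group
    obtain ⟨w, hw, u, hu, e2⟩ := (mem_sup_of_le_normalizer_left (hP.trans h.P_le)).mp a1
    rw [e1]
    by_cases u1 : u = 1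
    · rwa [e2, u1, mul_one]
    have z2 := (h.cj g').sq_V z hz
    have e3 : w * u * z * (w * u * z) = 1 := by
      rw [← e2, commutatorElement_def, inv_mul_cancel_right, conj_mul, z2]; group
    have e4 : u * z = z * u := by
      have w1 := h.comm hw (P.mul_mem (hP hu) (h2 hz))
      have : u * z * (u * z) = 1 := by
        calc u * z * (u * z) = w * w * (u * z * (u * z)) := by rw [h.sq_V w hw, one_mul]
          _ = w * (w * (u * z)) * (u * z) := by group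
          _ = w * (u * z * w) * (u * z) := by rw [w1]
          _ = w * u * z * (w * u * z) := by group
          _ = 1 := e3
      rw [eq_inv_of_mul_eq_one_left this, mul_inv_rev, inv_eq_of_mul_eq_one_left z2,
        inv_eq_of_mul_eq_one_left (h'.sq_V u hu)]
    rw [h.eq_one_of_cent hne hP h1 h2 h3 hz (h.cent_of_comm hne hP hu u1 (h2 hz) e4)]
    simp⟩
  exact hxM (by simpa using inv_mem (key x⁻¹ (inv_mem x1) v hv (fun e => v1 (Subtype.ext e))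
    (h.mem_of_cent hne hP h1 h2 h3 hvP (n1 hv))))

theorem le_cj : V ⊔ cj(g, V) ≤ cj(g, P) := by
  obtain ⟨x, hx, hM⟩ := SetLike.not_le_iff_exists.mp (h.not_le_norm hne hP)
  obtain ⟨y, hy, -, e⟩ := h.move hne hP hx hM
  rw [← e, ← cj_of_mem_normalizer (mul_mem (inv_mem (h.norm_of_le le_sup_left (sup_le h.le hP) hy)) hx)]
  exact cj_mono _ (sup_le h.le hP)

theorem sup_le_norm : P ⊔ cj(g, P) ≤ 𝐍[V ⊔ cj(g, V)] :=
  sup_le (h.norm_of_le le_sup_left (sup_le h.le hP)) ((h.cj g).norm_of_le le_sup_right (h.le_cj hne hP))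

theorem exists_natData : ∃ (F : Type) (_ : Field F) (_ : Fintype F), Fintype.card F = Nat.card V ∧
    Nonempty (NatData F (P ⊔ cj(g, P)) (V ⊔ cj(g, V)) ⊥) := by
  have h' := h.cj g
  have hN := h.sup_le_norm hne hP
  have hAP : V ⊔ cj(g, V) ≤ P := sup_le h.le hP
  obtain ⟨z, hz, hzM⟩ : ∃ z ∈ cj(g, P), z ∉ 𝐍[V] := by
    by_contra hc
    push Not at hc
    refine h.ne_bot hne (eq_bot_iff.mpr fun v hv => h.eq_one' hne (h'.cp fun z hz => ?_) hv)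
    exact commutatorElement_eq_one_iff_mul_comm.mp (h.eq_one' hne
      (h'.comm_mem hz (h.le_cj hne hP (mem_sup_left hv))) (comm_mem_right (hc z hz) hv))
  obtain ⟨y, hy, e1, e2⟩ := h.move hne hP (hN (mem_sup_right hz)) hzM
  obtain ⟨g', h1, h2, h3⟩ := h.exists_partner hne hP
  have hA : V ⊔ cj(g, V) ≤ 𝐂[V ⊔ cj(g, V)] := by
    rw [centralizer_sup]
    exact le_inf (hAP.trans h.cent) ((h.le_cj hne hP).trans h'.cent)
  have off : AmbOff (P ⊔ cj(g, P)) P 𝐍[V] 𝐂[V ⊔ cj(g, V)] (V ⊔ cj(g, V)) V ⊥ (y⁻¹ * z) :=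
    { sec := ⟨bot_le, (commutator_eq_bot_iff_le_centralizer.2 hA).le, hN, le_normalizer_of_normal⟩
      A_le := le_sup_left
      A_le_X := h.P_le
      x_mem := mul_mem (inv_mem (mem_sup_left hy)) (mem_sup_right hz)
      x_notMem := fun e => hne (by rw [← e1, cj_of_mem_normalizer e])
      le₀ := bot_le
      le₁ := le_sup_left
      normK := le_normalizer_centralizer hN
      triv := fun k hk _ u hu => commutatorElement_eq_one_iff_mul_comm.mpr (hk u hu).symm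
      ti := fun x hx hxM a ha e => by
        obtain ⟨y, hy, e'⟩ := h.cj_eq hne hP (cj_le_of_mem_normalizer le_sup_left (hN hx)) hxM
        have a1 : y⁻¹ * a * y ∈ 𝐍[cj(g, V)] := by
          rw [← mem_cj, ← normalizer_cj, ← cj_mul, ← e', normalizer_cj]
          exact mem_cj.mpr e
        have a2 := h.cent_of_norm hne hP (P.mul_mem (P.mul_mem (P.inv_mem hy) ha) hy) a1
        have a3 := conj_mem_of_mem_normalizer (h.norm_of_le (A := P ⊓ 𝐂[cj(g, V)])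
          (le_inf h.le (le_centralizer_iff.mp (hP.trans h.cent))) inf_le_left hy)
          ⟨P.mul_mem (P.mul_mem (P.inv_mem hy) ha) hy, a2⟩
        rw [centralizer_sup]
        exact ⟨h.cent ha, by simpa [mul_assoc] using a3.2⟩
      comm_mem := fun a ha u hu => h.comm_mem ha (hAP hu)
      fix := fun a ha u hu => commutatorElement_eq_one_iff_mul_comm.mpr (h.comm hu ha).symm
      disj := fun x _ hxM u hu e => by
        have := h.eq_one' (cj_eq_iff.not.mpr hxM) (conj_mem_cj x hu) e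
        rw [mem_bot, ← mul_inv_cancel_right u x⁻¹, ← inv_mul_cancel_left x u, mul_assoc x⁻¹, this]; group
      ne := fun e => h.ne_bot hne (le_bot_iff.mp e)
      card_le := h.card_le hne hP h1 h2 h3 }
  obtain ⟨n, hn⟩ := IsPGroup.iff_card.mp (h.two.to_le h.le)
  obtain ⟨F, _, _, hF⟩ := exists_field hn (fun e => h.ne_bot hne (card_eq_one.mp e))
  obtain ⟨D, -⟩ := off.natural (by rw [e2]; exact le_sup_left) F (by
    rw [Nat.card_eq_fintype_card, hF, off.card_U₁, card_bot, mul_one])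
  exact ⟨F, _, _, hF, ⟨D⟩⟩

theorem trans {v w : G} (hv : v ∈ V) (v1 : v ≠ 1) (hw : w ∈ V) (w1 : w ≠ 1) : ∃ m ∈ 𝐍[V], m * v * m⁻¹ = w := by
  obtain ⟨F, _, _, -, ⟨D⟩⟩ := h.exists_natData hne hP
  obtain ⟨s, hs⟩ := exists_smul_eq (y := D.ψ v) (z := D.ψ w)
    (fun e => v1 ((D.ψ_eq_zero v (mem_sup_left hv)).mp e)) (fun e => w1 ((D.ψ_eq_zero w (mem_sup_left hw)).mp e))
  obtain ⟨m, rfl⟩ := D.φ_surj s
  have e : (m : G) * v * (m : G)⁻¹ = w :=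
    D.ψ_inj (D.conj_mem m.2 (mem_sup_left hv)) (mem_sup_left hw) (by rw [D.ψ_conj m v (mem_sup_left hv), hs])
  refine ⟨m, ?_, e⟩
  have := h.mem_norm (a := 1) (x := m) (by rwa [cj_one]) v1 (by rwa [cj_one, e])
  rwa [cj_one] at this

theorem le_commutator : V ≤ ⁅P, P⁆ := fun v hv => by
  obtain ⟨g', h1, h2, h3⟩ := h.exists_partner hne hP
  obtain ⟨⟨u, hu⟩, u1⟩ := ne_bot_iff_exists_ne_one.mp (cj_eq_bot.not.mpr (h.ne_bot hne) : cj(g, V) ≠ ⊥)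
  obtain ⟨y, hy, rfl⟩ := h.exists_comm_eq hne hP h1 h2 h3 hu (fun e => u1 (Subtype.ext e)) hv
  exact commutator_mem_commutator (h2 hy) (hP hu)

theorem existsUnique {w : G} (hw : w ∈ V ⊔ cj(g, V)) (w1 : w ≠ 1) :
    ∃! U : Subgroup G, (∃ x : G, U = cj(x, V)) ∧ U ≤ V ⊔ cj(g, V) ∧ w ∈ U := by
  refine existsUnique_of_exists_of_unique ?_ ?_
  · by_cases hV : w ∈ V
    · exact ⟨V, ⟨1, (cj_one V).symm⟩, le_sup_left, hV⟩
    · obtain ⟨y, hy, e⟩ := h.exists_cj hne hP hw hV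
      refine ⟨_, ⟨_, rfl⟩, ?_, e⟩
      rw [cj_mul]
      exact cj_le_of_mem_normalizer le_sup_right (h.norm_of_le le_sup_left (sup_le h.le hP) hy)
  · rintro _ _ ⟨⟨a, rfl⟩, -, ha⟩ ⟨⟨b, rfl⟩, -, hb⟩
    exact h.ti' ha hb w1

end Line

end Base

theorem base_of [Finite G] {V : Subgroup G} (hV : IsElementaryAbelian 2 V)
    (h1 : 𝐍[V] ⊓ 𝐂[pCoreOf 2 𝐍[V]] ≤ pCoreOf 2 𝐍[V])
    (h2 : ∀ A : Subgroup G, V ≤ A → A ≤ 𝐍[V] → IsMulCommutative A →
      (∀ m ∈ 𝐍[V], ∀ a ∈ A, m * a * m⁻¹ ∈ A) → A = V)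
    (hti : ∀ x : G, cj(x, V) = V ∨ cj(x, V) ⊓ V = ⊥) : Base V (pCoreOf 2 𝐍[V] ⊓ 𝐂[V]) := by
  obtain ⟨v1, v2⟩ := isEA_iff.mp hV
  have hVC : V ≤ 𝐂[V] := fun v hv w hw => v1 w hw v hv
  have hVQ : V ≤ pCoreOf 2 𝐍[V] :=
    le_pCoreOf (isPGroup_iff.mpr fun v hv => ⟨1, by simpa using v2 v hv⟩) le_normalizer le_rfl
  have hn : 𝐍[V] ≤ 𝐍[pCoreOf 2 𝐍[V] ⊓ 𝐂[V]] :=
    le_normalizer_inf (le_normalizer_pCoreOf 2 _) (normalizer_le_normalizer_centralizer V)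
  have max : ∀ A : Subgroup G, V ≤ A → A ≤ pCoreOf 2 𝐍[V] ⊓ 𝐂[V] → A ≤ 𝐂[A] → 𝐍[V] ≤ 𝐍[A] → A ≤ V :=
    fun A a1 a2 a3 a4 => (h2 A a1 (a2.trans (inf_le_left.trans (pCoreOf_le 2 _)))
      (IsMulCommutative.of_setLike_mul_comm fun a ha b hb => a3 hb a ha)
      fun m hm a ha => conj_mem_of_mem_normalizer (a4 hm) ha).le
  have core : ∀ K : Subgroup G, IsPGroup 2 K → K ≤ 𝐂[V] → 𝐍[V] ≤ 𝐍[K] → K ≤ pCoreOf 2 𝐍[V] ⊓ 𝐂[V] :=
    fun K k1 k2 k3 => le_inf (le_pCoreOf k1 (k2.trans (centralizer_le_normalizer' V)) k3) k2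
  have hC : 𝐂[pCoreOf 2 𝐍[V] ⊓ 𝐂[V]] ≤ 𝐂[V] := centralizer_anti (le_inf hVQ hVC)
  have hZ : pCoreOf 2 𝐍[V] ⊓ 𝐂[pCoreOf 2 𝐍[V] ⊓ 𝐂[V]] ≤ V := fun x hx =>
    max ((pCoreOf 2 𝐍[V] ⊓ 𝐂[V]) ⊓ 𝐂[pCoreOf 2 𝐍[V] ⊓ 𝐂[V]])
      (le_inf (le_inf hVQ hVC) (le_centralizer_iff.mp inf_le_right)) inf_le_left
      (inf_le_right.trans (centralizer_anti inf_le_left))
      (le_normalizer_inf hn (le_normalizer_centralizer hn)) ⟨⟨hx.1, hC hx.2⟩, hx.2⟩
  have sq : ∀ v ∈ V, v * v = 1 := fun v hv => by rw [← pow_two]; exact v2 v hv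
  refine ⟨sq, hti, (isPGroup_pCoreOf 2 _).to_le inf_le_left, le_inf hVQ hVC, inf_le_right, hn, max, core,
    fun c hc => hZ ⟨(core _ (isPGroup_iff.mpr fun c hc => ?_) hC (le_normalizer_centralizer hn) hc).1, hc⟩⟩
  have hcM := centralizer_le_normalizer' V (hC hc)
  have : c * c ∈ pCoreOf 2 𝐍[V] := h1 ⟨mul_mem hcM hcM, fun y hy => by
    have hm : ⁅c, y⁆ ∈ V := hZ ⟨comm_mem_right (le_normalizer_pCoreOf 2 _ hcM) hy,
      comm_mem_left hc (le_normalizer_centralizer hn (pCoreOf_le 2 _ hy))⟩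
    have e : c * y = ⁅c, y⁆ * y * c := by simp [commutatorElement_def]
    have e1 := hC hc _ hm
    calc y * (c * c) = ⁅c, y⁆ * ⁅c, y⁆ * y * c * c := by rw [sq _ hm]; group
      _ = ⁅c, y⁆ * (c * y) * c := by rw [e]; group
      _ = c * (⁅c, y⁆ * y * c) := by rw [← mul_assoc, ← mul_assoc, ← mul_assoc, e1]
      _ = c * c * y := by rw [← e, mul_assoc]⟩
  obtain ⟨j, hj⟩ := isPGroup_iff.mp (isPGroup_pCoreOf 2 _) _ this
  exact ⟨j + 1, by rw [pow_succ', pow_mul, pow_two, hj]⟩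

theorem le_centralizer_of_trans [Finite G] {V Q : Subgroup G} (hV : IsPGroup 2 V) (hQ : IsPGroup 2 Q)
    (h1 : Q ≤ 𝐍[V]) (h2 : 𝐍[V] ≤ 𝐍[Q]) (h0 : V ≠ ⊥)
    (ht : ∀ v ∈ V, v ≠ 1 → ∀ w ∈ V, w ≠ 1 → ∃ m ∈ 𝐍[V], m * v * m⁻¹ = w) : Q ≤ 𝐂[V] := by
  obtain ⟨⟨v, hv⟩, v1⟩ := ne_bot_iff_exists_ne_one.mp (inf_centralizer_ne_bot hQ hV h1 h0)
  refine le_centralizer_iff.mp fun w hw => ?_
  by_cases w1 : w = 1
  · rw [w1]; exact one_mem _
  obtain ⟨m, hm, rfl⟩ := ht v hv.1 (fun e => v1 (Subtype.ext e)) w hw w1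
  exact conj_mem_of_mem_normalizer (le_normalizer_centralizer h2 hm) hv.2

theorem Base.cj_le_centralizer [Finite G] {V P : Subgroup G} (h : Base V P) {g : G} (hne : cj(g, V) ≠ V)
    (hn : cj(g, V) ≤ 𝐍[V]) : cj(g, V) ≤ 𝐂[V] := by
  have hVV : ∀ v ∈ V, ∀ w ∈ V, v * w = w * v := fun v hv w hw => h.comm hv (h.le hw)
  have key : ∀ u ∈ cj(g, V), u ≠ 1 → ∀ v ∈ V, v * u = u * v → v ∈ 𝐂[cj(g, V)] := by
    intro u hu u1 v hv e y hy
    have hvn : v ∈ 𝐍[cj(g, V)] := h.mem_norm hu u1 (by rw [e, mul_inv_cancel_right]; exact hu)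
    exact (commutatorElement_eq_one_iff_mul_comm.mp
      (h.eq_one' hne (comm_mem_left hy hvn) (comm_mem_right (hn hy) hv)))
  refine le_centralizer_iff.mp fun v hv => ?_
  by_contra hc
  have hmem : ∀ u ∈ cj(g, V), ⁅u, v⁆ ∈ V ⊓ 𝐂[cj(g, V)] := by
    intro u hu
    have m := comm_mem_right (hn hu) hv
    refine ⟨m, ?_⟩
    by_cases u1 : u = 1
    · rw [u1, commutatorElement_one_left]; exact one_mem _
    refine key u hu u1 _ m ?_
    have su : u * u = 1 := (h.cj g).sq_V u hu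
    have ui : u⁻¹ = u := inv_eq_of_mul_eq_one_right su
    have vi : v⁻¹ = v := inv_eq_of_mul_eq_one_right (h.sq_V v hv)
    have e := hVV _ (conj_mem_of_mem_normalizer (hn hu) hv) _ hv
    rw [ui] at e
    rw [commutatorElement_def, ui, vi]
    calc u * v * u * v * u = v * (u * v * u) * u := by rw [e]
      _ = v * u * v * (u * u) := by group
      _ = (u * u) * v * u * v := by rw [su]; group
      _ = u * (u * v * u * v) := by group
  have hinj : Function.Injective fun u : cj(g, V) => (⟨_, hmem u u.2⟩ : ↥(V ⊓ 𝐂[cj(g, V)])) := by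
    intro a b e
    have e' : ⁅(a : G), v⁆ = ⁅(b : G), v⁆ := congrArg Subtype.val e
    by_contra hab
    refine hc (key ((b : G)⁻¹ * a) (mul_mem (inv_mem b.2) a.2)
      (fun e => hab (Subtype.ext (inv_mul_eq_one.mp e).symm)) v hv ?_)
    rw [commutatorElement_def, commutatorElement_def, mul_left_inj] at e'
    calc v * ((b : G)⁻¹ * a) = (b : G)⁻¹ * (b * v * (b : G)⁻¹) * a := by group
      _ = (b : G)⁻¹ * a * v := by rw [← e']; group
  have hle := Nat.card_le_card_of_injective _ hinj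
  rw [card_cj] at hle
  have : V ⊓ 𝐂[cj(g, V)] = V := eq_of_le_of_card_ge inf_le_left hle
  exact hc (this.ge hv).2

end Cfsg.Agent.PLocal.TimmTI
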